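import Cfsg.Agent.BX.Iso.Mat
import Cfsg.Agent.BX.Max.Iface
set_option linter.all false

/-!
# `L₂(31)`, `PGL₂(11)`, `PGL₂(17)` (helper14, for S5527)

* `hom31`, `hom11`, `hom17` : the injective homomorphisms; `iso31`, `iso11`, `iso17` : the isomorphisms;
* `i31`, `i11`, `i17` : the facts of the interface.
-/

set_option autoImplicit false

namespace Cfsg.Agent.BX.Iso

open Subgroup Matrix Cfsg.Agent.BX.Max

theorem num31 : Num 31 15 9 := ⟨by norm_num, by norm_num, by norm_num, by norm_num, by decide, by decide⟩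
theorem num11 : Num 11 10 2 := ⟨by norm_num, by norm_num, by norm_num, by norm_num, by decide, by decide⟩
theorem num11' : Num 11 5 4 := ⟨by norm_num, by norm_num, by norm_num, by norm_num, by decide, by decide⟩
theorem num17 : Num 17 16 3 := ⟨by norm_num, by norm_num, by norm_num, by norm_num, by decide, by decide⟩

theorem nat_of_zmod {p : ℕ} [NeZero p] (t : ZMod p) : ∃ n : ℕ, t = n := ⟨t.val, (ZMod.natCast_zmod_val t).symm⟩

theorem pow_of_zmod {p : ℕ} [Fact p.Prime] (s : (ZMod p)ˣ) (m : ℕ)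
    (h : ∀ t : ZMod p, t = 0 ∨ ∃ j < m, t = (s : ZMod p) ^ j) (t : (ZMod p)ˣ) : ∃ j : ℕ, t = s ^ j := by
  rcases h t with h1 | ⟨j, -, h1⟩
  · exact absurd h1 t.ne_zero
  · exact ⟨j, Units.ext (by rw [h1, Units.val_pow_eq_pow_val])⟩

/-- the normalisers of two subgroups of prime order `p` have the same order when `p ^ 2` does not divide the order -/
theorem card_norm_eq {K : Type*} [Group K] [Finite K] {p : ℕ} (hp : p.Prime) (h2 : ¬ p ^ 2 ∣ Nat.card K) {x y : K}
    (hx : orderOf x = p) (hy : orderOf y = p) :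
    Nat.card (normalizer ((zpowers x : Subgroup K) : Set K)) = Nat.card (normalizer ((zpowers y : Subgroup K) : Set K)) := by
  have := Fact.mk hp
  have key : ∀ z : K, orderOf z = p →
      (normalizer ((zpowers z : Subgroup K) : Set K)).index = Nat.card (Sylow p K) := fun z hz => by
    have h1 : Nat.card (zpowers z) = p ^ 1 := by rw [Nat.card_zpowers, hz, pow_one]
    have h3 : ¬ p ∣ (zpowers z).index := fun h4 => h2 (by
      rw [← (zpowers z).card_mul_index, h1, pow_succ p 1]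
      exact Nat.mul_dvd_mul_left _ h4)
    exact (Sylow.card_eq_index_normalizer ((IsPGroup.of_card h1).toSylow h3)).symm
  have h5 := (normalizer ((zpowers x : Subgroup K) : Set K)).card_mul_index
  rw [key x hx, ← (normalizer ((zpowers y : Subgroup K) : Set K)).card_mul_index, key y hy] at h5
  exact Nat.eq_of_mul_eq_mul_right Nat.card_pos h5

/-! ### `L₂(31)` -/

local instance fact31 : Fact (Nat.Prime 31) := ⟨by norm_num⟩
local instance fact11 : Fact (Nat.Prime 11) := ⟨by norm_num⟩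
local instance fact17 : Fact (Nat.Prime 17) := ⟨by norm_num⟩

/-- the unit 3 modulo 31 -/
def s31 : (ZMod 31)ˣ := ⟨3, 21, by decide, by decide⟩
/-- the unit 2 modulo 11 -/
def s11 : (ZMod 11)ˣ := ⟨2, 6, by decide, by decide⟩
/-- the unit 3 modulo 17 -/
def s17 : (ZMod 17)ˣ := ⟨3, 6, by decide, by decide⟩

/-- generator -/
def u31 : T31 := πS (su 1)
/-- generator -/
def h31 : T31 := πS (sd s31)
/-- generator -/
def w31 : T31 := πS sw

theorem rel31 : R1 31 15 9 u31 h31 w31 :=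
  psl_rel (F := ZMod 31) (by decide) s31 (Or.inr (Units.ext (by decide))) (by decide)

theorem ne31 : u31 ≠ 1 := psl_ne (F := ZMod 31)

theorem gen31 : Subgroup.closure ({u31, h31, w31} : Set T31) = ⊤ :=
  psl_gen (F := ZMod 31) nat_of_zmod s31 (pow_of_zmod s31 30 (by decide))

theorem simple31 : IsSimpleGroup T31 :=
  ProjectiveSpecialLinearGroup.rank_two_simple' (F := ZMod 31) ⟨2, by decide, by decide⟩

theorem card31 : Nat.card T31 = 14880 := rel31.card_top num31 ne31 gen31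

theorem ord16 : orderOf (u31 ^ 4 * w31) = 16 := by
  have e : u31 ^ 4 * w31 = πS (su (4 : ZMod 31) * sw) := by
    rw [map_mul, u31, ← map_pow, su_pow]; rfl
  have h8 : vl ((su (4 : ZMod 31) * sw) ^ 8) = !![28, 17; 14, 3] := by
    simp only [pow_succ, pow_zero, one_mul, vl_mul, su_val, sw_val, mul_fin_two]
    decide
  refine orderOf_eq_prime_pow (p := 2) (n := 3) (fun h => ?_) ?_
  · rw [e, ← map_pow, πS_one] at h
    have h1 := congrArg (fun A => vl A 0 0) (Subgroup.mem_center_iff.1 h (su 1))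
    simp only [vl_mul, su_val] at h1
    rw [show (2 ^ 3 : ℕ) = 8 from rfl, h8, mul_fin_two, mul_fin_two] at h1
    revert h1
    decide
  · rw [e, ← map_pow, πS_one]
    refine sl_cent (r := -1) ?_
    rw [show (2 ^ (3 + 1) : ℕ) = 8 + 8 from rfl, pow_add, vl_mul, h8, mul_fin_two]
    decide

theorem i31 : I31 T31 :=
  ⟨card31, simple31, ⟨u31, h31, rel31.ord_u num31 ne31, rel31.hu⟩, ⟨_, ord16⟩⟩

/-! ### `PGL₂(11)` -/

/-- generator -/
def u11 : T11 := σG (su 1)
/-- generator -/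
def h11 : T11 := πG (gd s11)
/-- generator -/
def w11 : T11 := σG sw

theorem rel11 : R1 11 10 2 u11 h11 w11 := pgl_rel (F := ZMod 11) (by decide) s11 (Units.ext (by decide)) (by decide)

theorem ne11 : u11 ≠ 1 := pgl_ne (F := ZMod 11)

theorem hs11 : ∀ t : (ZMod 11)ˣ, ∃ j : ℕ, t = s11 ^ j := pow_of_zmod s11 10 (by decide)

theorem gen11 : Subgroup.closure ({u11, h11, w11} : Set T11) = ⊤ := pgl_gen (F := ZMod 11) nat_of_zmod s11 hs11

theorem card11 : Nat.card T11 = 1320 := rel11.card_top num11 ne11 gen11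

theorem min11 (N : Subgroup T11) (hN : N.Normal) (h : N ≠ ⊥) : Subgroup.closure ({u11, h11 ^ 2, w11} : Set T11) ≤ N :=
  (σG_range (F := ZMod 11) nat_of_zmod s11 hs11).ge.trans
    (pgl_min (F := ZMod 11) (by decide) ⟨2, by decide, by decide⟩ N hN h)

theorem socEquiv11 : Nonempty (Subgroup.closure ({u11, h11 ^ 2, w11} : Set T11) ≃* ProjectiveSpecialLinearGroup (Fin 2) (ZMod 11)) :=
  ⟨(MulEquiv.subgroupCongr (σG_range (F := ZMod 11) nat_of_zmod s11 hs11).symm).trans (σG_equiv (F := ZMod 11)).some⟩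

theorem cardS11 : Nat.card (Subgroup.closure ({u11, h11 ^ 2, w11} : Set T11)) = 660 := by
  have h : Nat.gcd 2 (11 - 1) * ((11 - 1) * Nat.card (ProjectiveSpecialLinearGroup (Fin 2) (ZMod 11))) =
      ∏ i : Fin 2, (11 ^ 2 - 11 ^ (i : ℕ)) := Cfsg.Agent.S0243.result (F := ZMod 11) (ZMod.card 11) 2 le_rfl
  rw [Nat.card_congr socEquiv11.some.toEquiv]
  generalize Nat.card (ProjectiveSpecialLinearGroup (Fin 2) (ZMod 11)) = c at h
  simp only [Fin.prod_univ_two] at h
  norm_num at h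
  omega

theorem no15_11 (s : T11) : orderOf s ≠ 15 := fun hs => by
  have : Finite T11 := Nat.finite_of_card_ne_zero (by rw [card11]; norm_num)
  have h1 : orderOf (s ^ 3) = 5 := by rw [orderOf_pow_of_dvd (by norm_num) (by rw [hs]; norm_num), hs]
  have h2 : orderOf (h11 ^ 2) = 5 := by
    rw [orderOf_pow_of_dvd (by norm_num) (by rw [rel11.ord_h num11 ne11]; norm_num), rel11.ord_h num11 ne11]
  have h3 := rel11.norm_h num11 ne11 (pow_mem (mem_zpowers h11) 2) (fun e => by rw [e, orderOf_one] at h2; omega)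
  rw [gen11, top_inf_eq] at h3
  have h4 := card_norm_eq (p := 5) (by norm_num) (by rw [card11]; norm_num) h1 h2
  rw [h3, rel11.card_D num11 ne11] at h4
  have h5 : s ∈ normalizer ((zpowers (s ^ 3) : Subgroup T11) : Set T11) :=
    norm_of_pow (n := 5) (e := 1) (by norm_num) (h1 ▸ pow_orderOf_eq_one _) (by group)
  have h6 := orderOf_dvd_natCard _ h5
  rw [h4, hs] at h6
  norm_num at h6

theorem i11 : I11 T11 := by
  refine ⟨card11, ⟨_, cardS11, fun N hN => or_iff_not_imp_left.2 (min11 N hN)⟩,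
    ⟨u11, h11 ^ 2, rel11.ord_u num11 ne11, by rw [← pow_mul]; exact rel11.hm, ?_⟩, no15_11⟩
  have := conj_pow_pow rel11.hu 1 2
  rw [pow_one] at this
  rw [this, mul_inv_cancel_right]
  rfl

/-! ### `PGL₂(17)` -/

/-- generator -/
def u17 : T17 := σG (su 1)
/-- generator -/
def h17 : T17 := πG (gd s17)
/-- generator -/
def w17 : T17 := σG sw

theorem rel17 : R1 17 16 3 u17 h17 w17 := pgl_rel (F := ZMod 17) (by decide) s17 (Units.ext (by decide)) (by decide)

theorem ne17 : u17 ≠ 1 := pgl_ne (F := ZMod 17)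

theorem hs17 : ∀ t : (ZMod 17)ˣ, ∃ j : ℕ, t = s17 ^ j := pow_of_zmod s17 16 (by decide)

theorem gen17 : Subgroup.closure ({u17, h17, w17} : Set T17) = ⊤ := pgl_gen (F := ZMod 17) nat_of_zmod s17 hs17

theorem card17 : Nat.card T17 = 4896 := rel17.card_top num17 ne17 gen17

theorem min17 (N : Subgroup T17) (hN : N.Normal) (h : N ≠ ⊥) : Subgroup.closure ({u17, h17 ^ 2, w17} : Set T17) ≤ N :=
  (σG_range (F := ZMod 17) nat_of_zmod s17 hs17).ge.trans
    (pgl_min (F := ZMod 17) (by decide) ⟨2, by decide, by decide⟩ N hN h)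

theorem socEquiv17 : Nonempty (Subgroup.closure ({u17, h17 ^ 2, w17} : Set T17) ≃* ProjectiveSpecialLinearGroup (Fin 2) (ZMod 17)) :=
  ⟨(MulEquiv.subgroupCongr (σG_range (F := ZMod 17) nat_of_zmod s17 hs17).symm).trans (σG_equiv (F := ZMod 17)).some⟩

theorem cardS17 : Nat.card (Subgroup.closure ({u17, h17 ^ 2, w17} : Set T17)) = 2448 := by
  have h : Nat.gcd 2 (17 - 1) * ((17 - 1) * Nat.card (ProjectiveSpecialLinearGroup (Fin 2) (ZMod 17))) =
      ∏ i : Fin 2, (17 ^ 2 - 17 ^ (i : ℕ)) := Cfsg.Agent.S0243.result (F := ZMod 17) (ZMod.card 17) 2 le_rfl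
  rw [Nat.card_congr socEquiv17.some.toEquiv]
  generalize Nat.card (ProjectiveSpecialLinearGroup (Fin 2) (ZMod 17)) = c at h
  simp only [Fin.prod_univ_two] at h
  norm_num at h
  omega

theorem i17 : I17 T17 :=
  ⟨card17, ⟨_, cardS17, fun N hN => or_iff_not_imp_left.2 (min17 N hN)⟩, ⟨u17, h17, rel17.ord_u num17 ne17, rel17.hu⟩⟩

/-! ### The isomorphisms -/

variable {G : Type*} [Group G] {u h w : G}

theorem hom31 (r : R1 31 15 9 u h w) (hu : u ≠ 1) :
    ∃ φ : T31 →* G, Function.Injective φ ∧ φ u31 = u ∧ φ h31 = h ∧ φ w31 = w := by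
  obtain ⟨φ, e1, e2, e3⟩ := rel31.exists_hom num31 ne31 gen31 r
  have := simple31
  exact ⟨φ, inj_of_simple φ (x := u31) (by rwa [e1]), e1, e2, e3⟩

theorem iso31 (r : R1 31 15 9 u h w) (hu : u ≠ 1) : Nonempty (Subgroup.closure ({u, h, w} : Set G) ≃* T31) := by
  obtain ⟨φ, hφ, rfl, rfl, rfl⟩ := hom31 r hu
  exact equiv3 gen31 hφ

theorem hom11 (r : R1 11 10 2 u h w) (hu : u ≠ 1) :
    ∃ φ : T11 →* G, Function.Injective φ ∧ φ u11 = u ∧ φ h11 = h ∧ φ w11 = w := by
  obtain ⟨φ, e1, e2, e3⟩ := rel11.exists_hom num11 ne11 gen11 r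
  exact ⟨φ, inj_of_min min11 φ (mem1 _ _ _) (by rwa [e1]), e1, e2, e3⟩

theorem iso11 (r : R1 11 10 2 u h w) (hu : u ≠ 1) : Nonempty (Subgroup.closure ({u, h, w} : Set G) ≃* T11) := by
  obtain ⟨φ, hφ, rfl, rfl, rfl⟩ := hom11 r hu
  exact equiv3 gen11 hφ

theorem hom17 (r : R1 17 16 3 u h w) (hu : u ≠ 1) :
    ∃ φ : T17 →* G, Function.Injective φ ∧ φ u17 = u ∧ φ h17 = h ∧ φ w17 = w := by
  obtain ⟨φ, e1, e2, e3⟩ := rel17.exists_hom num17 ne17 gen17 r
  exact ⟨φ, inj_of_min min17 φ (mem1 _ _ _) (by rwa [e1]), e1, e2, e3⟩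

theorem iso17 (r : R1 17 16 3 u h w) (hu : u ≠ 1) : Nonempty (Subgroup.closure ({u, h, w} : Set G) ≃* T17) := by
  obtain ⟨φ, hφ, rfl, rfl, rfl⟩ := hom17 r hu
  exact equiv3 gen17 hφ

end Cfsg.Agent.BX.Iso
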