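import Cfsg.Agent.BX.Iso.RankOne
import Cfsg.Agent.S0243
set_option linter.all false

/-!
# The generators `u, h, w` of `L₂(p)` and `PGL₂(p)` (helper14, for S5527)

* `R1.card` : the order of a nontrivial group with the relations `R1`;
* `R1.exists_hom` : the homomorphism from a group generated by elements with the relations `R1`;
* `psl_rel`, `psl_gen`, `pgl_rel`, `pgl_gen`, `pgl_min` : the matrix groups.
-/

set_option autoImplicit false

namespace Cfsg.Agent.BX.Iso

open Subgroup Matrix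

section abs

variable {G : Type*} [Group G] {p m k : ℕ} {u h w : G}

theorem R1.card (r : R1 p m k u h w) (n : Num p m k) (hu : u ≠ 1) :
    Nat.card (closure ({u, h, w} : Set G)) = (p + 1) * (p * m) := by
  obtain ⟨h1, h2⟩ := r.card_le n
  refine le_antisymm h2 ?_
  have hle : closure ({u, h} : Set G) ≤ closure ({u, h, w} : Set G) := cl2_le (mem1 _ _ _) (mem2 _ _ _)
  let f : Option (Fin p) × closure ({u, h} : Set G) → closure ({u, h, w} : Set G) := fun t =>
    match t with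
    | (none, b) => ⟨b, hle b.2⟩
    | (some i, b) => ⟨u ^ (i : ℕ) * w * b, mul_mem (mul_mem (pow_mem (mem1 _ _ _) _) (mem3 _ _ _)) (hle b.2)⟩
  have k1 : ∀ (i : ℕ) (b c : closure ({u, h} : Set G)), u ^ i * w * b ≠ c := fun i b c e => by
    have := mul_mem (mul_mem (inv_mem (pow_mem (memL u h) i)) c.2) (inv_mem b.2)
    rw [← e, mul_assoc, mul_inv_cancel_right, inv_mul_cancel_left] at this
    exact r.w_notB n hu this
  have k2 : ∀ (i j : ℕ) (b c : closure ({u, h} : Set G)), j < p → u ^ i * w * b = u ^ j * w * c → ¬ i < j :=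
    fun i j b c hj e hlt => by
    obtain ⟨d, rfl⟩ := Nat.exists_eq_add_of_lt hlt
    have h3 : u ^ (d + 1) ≠ 1 := fun e1 => by
      have := Nat.le_of_dvd (Nat.succ_pos d) (r.ord_u n hu ▸ orderOf_dvd_of_pow_eq_one e1)
      omega
    obtain ⟨b1, hb1, c1, hc1, e1⟩ := r.wtw n h3
    rw [add_assoc, pow_add, mul_assoc, mul_assoc, mul_assoc, mul_right_inj] at e
    have e2 : w = b1⁻¹ * (b * (c : G)⁻¹) * c1⁻¹ := by
      have e3 : (b : G) = w * u ^ (d + 1) * w * c := by
        rw [mul_assoc, mul_assoc, ← e, ← mul_assoc, r.w_mul, one_mul]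
      rw [e3, e1]
      group
    refine r.w_notB n hu ?_
    rw [e2]
    exact mul_mem (mul_mem (inv_mem hb1) (mul_mem b.2 (inv_mem c.2))) (inv_mem hc1)
  have hf : Function.Injective f := by
    rintro ⟨_ | i, b⟩ ⟨_ | j, c⟩ e
    · rw [show b = c from Subtype.ext (congrArg Subtype.val e :)]
    · exact absurd (congrArg Subtype.val e).symm (k1 j c b)
    · exact absurd (congrArg Subtype.val e) (k1 i b c)
    · have e1 : u ^ (i : ℕ) * w * b = u ^ (j : ℕ) * w * c := congrArg Subtype.val e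
      have e2 : i = j := Fin.ext (le_antisymm (not_lt.1 (k2 _ _ _ _ i.2 e1.symm)) (not_lt.1 (k2 _ _ _ _ j.2 e1)))
      subst e2
      rw [show b = c from Subtype.ext (mul_left_cancel e1)]
  have := Nat.card_le_card_of_injective f hf
  rwa [Nat.card_prod, Nat.card_eq_fintype_card (α := Option (Fin p)), Fintype.card_option, Fintype.card_fin,
    r.card_B n hu] at this

theorem R1.card_top (r : R1 p m k u h w) (n : Num p m k) (hu : u ≠ 1) (hgen : closure ({u, h, w} : Set G) = ⊤) :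
    Nat.card G = (p + 1) * (p * m) := by
  rw [← r.card n hu, hgen, Subgroup.card_top]

theorem R1.exists_hom {Q : Type*} [Group Q] {u0 h0 w0 : Q} (r0 : R1 p m k u0 h0 w0) (n : Num p m k) (hu : u0 ≠ 1)
    (hgen : closure ({u0, h0, w0} : Set Q) = ⊤) (r : R1 p m k u h w) :
    ∃ φ : Q →* G, φ u0 = u ∧ φ h0 = h ∧ φ w0 = w := by
  have h1 := r0.card_top n hu hgen
  have : Finite Q := Nat.finite_of_card_ne_zero (by
    rw [h1]; exact Nat.mul_ne_zero (Nat.succ_ne_zero p) (Nat.mul_ne_zero n.prime.ne_zero n.pos.ne'))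
  exact exists_hom3 hgen (by rw [h1]; exact (r0.prod r).card_le n)

end abs

section mat

variable {F : Type*} [Field F]

/-- the unipotent matrix -/
def su (t : F) : SpecialLinearGroup (Fin 2) F := ⟨!![1, t; 0, 1], by simp⟩

/-- the Weyl matrix -/
def sw : SpecialLinearGroup (Fin 2) F := ⟨!![0, -1; 1, 0], by simp⟩

/-- the diagonal matrix of determinant one -/
def sd (s : Fˣ) : SpecialLinearGroup (Fin 2) F := ⟨!![(s : F), 0; 0, ((s⁻¹ : Fˣ) : F)], by simp⟩

/-- the diagonal matrix `diag(s, 1)` -/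
def gd (s : Fˣ) : GL (Fin 2) F :=
  ⟨!![(s : F), 0; 0, 1], !![((s⁻¹ : Fˣ) : F), 0; 0, 1], by simp [← one_fin_two], by simp [← one_fin_two]⟩

/-- the matrix of an element of `SL₂` -/
def vl (A : SpecialLinearGroup (Fin 2) F) : Matrix (Fin 2) (Fin 2) F := A.1

theorem vl_mul (A B : SpecialLinearGroup (Fin 2) F) : vl (A * B) = vl A * vl B := rfl
theorem vl_one : vl (1 : SpecialLinearGroup (Fin 2) F) = 1 := rfl
theorem vl_ext {A B : SpecialLinearGroup (Fin 2) F} (h : vl A = vl B) : A = B := Subtype.ext h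
theorem vl_det (A : SpecialLinearGroup (Fin 2) F) : (vl A).det = 1 := A.2
theorem vl_gl (A : SpecialLinearGroup (Fin 2) F) :
    ((SpecialLinearGroup.toGL A : GL (Fin 2) F) : Matrix (Fin 2) (Fin 2) F) = vl A := rfl
theorem su_val (t : F) : vl (su t) = !![1, t; 0, 1] := rfl
theorem sw_val : vl (sw : SpecialLinearGroup (Fin 2) F) = !![0, -1; 1, 0] := rfl
theorem sd_val (s : Fˣ) : vl (sd s) = !![(s : F), 0; 0, ((s⁻¹ : Fˣ) : F)] := rfl
theorem gd_val (s : Fˣ) : (gd s : Matrix (Fin 2) (Fin 2) F) = !![(s : F), 0; 0, 1] := rfl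

theorem su_mul (s t : F) : su s * su t = su (s + t) := vl_ext (by
  rw [vl_mul, su_val, su_val, su_val, mul_fin_two]; simp [add_comm])

theorem su_zero : su (0 : F) = 1 := vl_ext (by rw [su_val, vl_one, one_fin_two])

theorem su_pow (n : ℕ) : su (1 : F) ^ n = su (n : F) := by
  induction n with
  | zero => rw [pow_zero, Nat.cast_zero, su_zero]
  | succ n ih => rw [pow_succ, ih, su_mul, Nat.cast_succ]

theorem sd_mul (s t : Fˣ) : sd s * sd t = sd (s * t) := vl_ext (by
  rw [vl_mul, sd_val, sd_val, sd_val, mul_fin_two]; simp [mul_comm])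

theorem sd_one : sd (1 : Fˣ) = 1 := vl_ext (by rw [sd_val, vl_one, one_fin_two]; simp)

theorem sd_pow (s : Fˣ) (n : ℕ) : sd s ^ n = sd (s ^ n) := by
  induction n with
  | zero => rw [pow_zero, pow_zero, sd_one]
  | succ n ih => rw [pow_succ, ih, sd_mul, pow_succ]

theorem gd_mul (s t : Fˣ) : gd s * gd t = gd (s * t) := Units.ext (by
  rw [Units.val_mul, gd_val, gd_val, gd_val, mul_fin_two]; simp)

theorem gd_one : gd (1 : Fˣ) = 1 := Units.ext (by rw [gd_val, Units.val_one, Units.val_one, one_fin_two])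

theorem gd_pow (s : Fˣ) (n : ℕ) : gd s ^ n = gd (s ^ n) := by
  induction n with
  | zero => rw [pow_zero, pow_zero, gd_one]
  | succ n ih => rw [pow_succ, ih, gd_mul, pow_succ]

theorem sd_su (s : Fˣ) (t : F) : sd s * su t = su ((s : F) ^ 2 * t) * sd s := vl_ext (by
  rw [vl_mul, vl_mul, sd_val, su_val, su_val, mul_fin_two, mul_fin_two]
  have := s.ne_zero
  simp
  field_simp)

theorem scal_comm {r : F} {A : Matrix (Fin 2) (Fin 2) F} (h : A = !![r, 0; 0, r]) (B : Matrix (Fin 2) (Fin 2) F) :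
    B * A = A * B := by
  rw [h, eta_fin_two B, mul_fin_two, mul_fin_two]
  simp [mul_comm]

theorem sl_cent {A : SpecialLinearGroup (Fin 2) F} {r : F} (h : vl A = !![r, 0; 0, r]) :
    A ∈ center (SpecialLinearGroup (Fin 2) F) :=
  Subgroup.mem_center_iff.2 fun B => vl_ext (scal_comm h (vl B))

theorem gl_cent {A : GL (Fin 2) F} {r : F} (h : (A : Matrix (Fin 2) (Fin 2) F) = !![r, 0; 0, r]) :
    A ∈ center (GL (Fin 2) F) :=
  Subgroup.mem_center_iff.2 fun B => Units.ext (scal_comm h B)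

theorem of_gl_cent {A : GL (Fin 2) F} (h : A ∈ center (GL (Fin 2) F)) :
    ∃ r : F, (A : Matrix (Fin 2) (Fin 2) F) = !![r, 0; 0, r] := by
  obtain ⟨r, hr⟩ := GeneralLinearGroup.mem_center_iff_val_mem_range_scalar.1 h
  refine ⟨r, ?_⟩
  rw [← hr]
  ext i j
  fin_cases i <;> fin_cases j <;> simp

theorem ww_cent : (sw : SpecialLinearGroup (Fin 2) F) ^ 2 ∈ center (SpecialLinearGroup (Fin 2) F) :=
  sl_cent (r := -1) (by rw [pow_two, vl_mul, sw_val, mul_fin_two]; simp)

theorem uw_cent : (su (1 : F) * sw) ^ 3 ∈ center (SpecialLinearGroup (Fin 2) F) :=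
  sl_cent (r := -1) (by
    simp only [pow_succ, pow_zero, one_mul, vl_mul, su_val, sw_val, mul_fin_two]; simp)

theorem wd_cent (s : Fˣ) : (sw * sd s) ^ 2 ∈ center (SpecialLinearGroup (Fin 2) F) :=
  sl_cent (r := -1) (by
    simp only [pow_succ, pow_zero, one_mul, vl_mul, sd_val, sw_val, mul_fin_two]; simp)

theorem su_not : su (1 : F) ∉ center (SpecialLinearGroup (Fin 2) F) := fun h => by
  have h1 := congrArg (fun A : SpecialLinearGroup (Fin 2) F => vl A 0 0)
    (Subgroup.mem_center_iff.1 h sw)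
  simp only [vl_mul, su_val, sw_val, mul_fin_two] at h1
  simp at h1

/-- generators of `SL₂` -/
theorem sl_top {K : Subgroup (SpecialLinearGroup (Fin 2) F)} (hu : ∀ t, su t ∈ K) (hd : ∀ s, sd s ∈ K) (hw : sw ∈ K) :
    K = ⊤ := by
  have key : ∀ A : SpecialLinearGroup (Fin 2) F, vl A 1 0 = 0 → A ∈ K := fun A hA => by
    have h1 := vl_det A
    rw [det_fin_two, hA, mul_zero, sub_zero] at h1
    have h2 : vl A 0 0 ≠ 0 := left_ne_zero_of_mul_eq_one h1
    have e : A = su (vl A 0 1 * vl A 0 0) * sd (Units.mk0 _ h2) := vl_ext (by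
      rw [vl_mul, su_val, sd_val, mul_fin_two]
      have h3 : vl A 1 1 = (vl A 0 0)⁻¹ :=
        eq_inv_of_mul_eq_one_right h1
      ext i j
      fin_cases i <;> fin_cases j
      · simp
      · simp [mul_assoc, h2]
      · simpa using hA
      · simpa using h3)
    rw [e]
    exact mul_mem (hu _) (hd _)
  rw [eq_top_iff]
  intro A _
  by_cases hc : vl A 1 0 = 0
  · exact key A hc
  · have h1 := key (sw * (su (-(vl A 0 0 / vl A 1 0)) * A)) (by
      simp only [vl_mul, su_val, sw_val, mul_apply, Fin.sum_univ_two]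
      simp
      field_simp
      simp)
    have h2 := mul_mem (inv_mem (hu (-(vl A 0 0 / vl A 1 0)))) (mul_mem (inv_mem hw) h1)
    rwa [inv_mul_cancel_left, inv_mul_cancel_left] at h2

/-- generators of `GL₂` -/
theorem gl_top {K : Subgroup (GL (Fin 2) F)} (hs : ∀ A : SpecialLinearGroup (Fin 2) F, SpecialLinearGroup.toGL A ∈ K)
    (hd : ∀ s, gd s ∈ K) : K = ⊤ := by
  rw [eq_top_iff]
  intro A _
  let B : SpecialLinearGroup (Fin 2) F := ⟨((gd (GeneralLinearGroup.det A)⁻¹ * A : GL (Fin 2) F) : Matrix _ _ F), by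
    rw [Units.val_mul, det_mul, gd_val, det_fin_two_of]
    simp [A.det_ne_zero]⟩
  have e : SpecialLinearGroup.toGL B = gd (GeneralLinearGroup.det A)⁻¹ * A := Units.ext rfl
  have h1 := mul_mem (inv_mem (hd (GeneralLinearGroup.det A)⁻¹)) (hs B)
  rwa [e, inv_mul_cancel_left] at h1

/-- `SL₂ → L₂` -/
abbrev πS : SpecialLinearGroup (Fin 2) F →* ProjectiveSpecialLinearGroup (Fin 2) F :=
  QuotientGroup.mk' (center (SpecialLinearGroup (Fin 2) F))

/-- `PGL₂` -/
abbrev PG (F : Type*) [Field F] := GL (Fin 2) F ⧸ center (GL (Fin 2) F)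

/-- `GL₂ → PGL₂` -/
abbrev πG : GL (Fin 2) F →* PG F := QuotientGroup.mk' (center (GL (Fin 2) F))

/-- `SL₂ → PGL₂` -/
def σG : SpecialLinearGroup (Fin 2) F →* PG F := πG.comp SpecialLinearGroup.toGL

theorem πS_one {A : SpecialLinearGroup (Fin 2) F} : πS A = 1 ↔ A ∈ center (SpecialLinearGroup (Fin 2) F) :=
  QuotientGroup.eq_one_iff A

theorem πG_one {A : GL (Fin 2) F} : πG A = 1 ↔ A ∈ center (GL (Fin 2) F) := QuotientGroup.eq_one_iff A

theorem σG_one {A : SpecialLinearGroup (Fin 2) F} : σG A = 1 ↔ A ∈ center (SpecialLinearGroup (Fin 2) F) :=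
  πG_one.trans (SpecialLinearGroup.toGL_mem_center_iff A)

variable {p m k : ℕ}

theorem psl_rel (hp : (p : F) = 0) (s : Fˣ) (hm : s ^ m = 1 ∨ s ^ m = -1) (hk : (s : F) ^ 2 = k) :
    R1 p m k (πS (su (1 : F))) (πS (sd s)) (πS sw) := by
  refine ⟨?_, ?_, ?_, ?_, ?_, ?_⟩
  · rw [← map_pow, su_pow, hp, su_zero, map_one]
  · rw [← map_pow, sd_pow, πS_one]
    rcases hm with hm | hm <;> rw [hm]
    · exact sl_cent (r := 1) (by rw [sd_val]; simp)
    · exact sl_cent (r := -1) (by rw [sd_val]; simp)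
  · rw [← map_pow, su_pow, ← hk, ← map_mul, sd_su, map_mul, mul_inv_cancel_right, mul_one]
  · rw [← map_pow, πS_one]; exact ww_cent
  · rw [← map_mul, ← map_pow, πS_one]; exact wd_cent s
  · rw [← map_mul, ← map_pow, πS_one]; exact uw_cent

theorem psl_ne : πS (su (1 : F)) ≠ 1 := fun h => su_not (πS_one.1 h)

theorem psl_gen (hF : ∀ t : F, ∃ n : ℕ, t = n) (s : Fˣ) (hs : ∀ t : Fˣ, ∃ j : ℕ, t = s ^ j) :
    closure ({πS (su (1 : F)), πS (sd s), πS sw} : Set (ProjectiveSpecialLinearGroup (Fin 2) F)) = ⊤ := by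
  have h1 : closure ({su (1 : F), sd s, sw} : Set (SpecialLinearGroup (Fin 2) F)) = ⊤ := by
    refine sl_top (fun t => ?_) (fun t => ?_) (mem3 _ _ _)
    · obtain ⟨n, rfl⟩ := hF t
      rw [← su_pow]
      exact pow_mem (mem1 _ _ _) n
    · obtain ⟨j, rfl⟩ := hs t
      rw [← sd_pow]
      exact pow_mem (mem2 _ _ _) j
  rw [← map_cl3, h1]
  exact map_top_of_surjective _ (QuotientGroup.mk'_surjective _)

theorem gd_su (s : Fˣ) (t : F) : gd s * SpecialLinearGroup.toGL (su t) =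
    SpecialLinearGroup.toGL (su ((s : F) * t)) * gd s := Units.ext (by
  rw [Units.val_mul, Units.val_mul, gd_val]
  rw [vl_gl, vl_gl, su_val, su_val, mul_fin_two, mul_fin_two]
  simp)

theorem pgl_rel (hp : (p : F) = 0) (s : Fˣ) (hm : s ^ m = 1) (hk : (s : F) = k) :
    R1 p m k (σG (su (1 : F))) (πG (gd s)) (σG sw) := by
  refine ⟨?_, ?_, ?_, ?_, ?_, ?_⟩
  · rw [← map_pow, su_pow, hp, su_zero, map_one]
  · rw [← map_pow, gd_pow, hm, gd_one, map_one]
  · rw [← map_pow, su_pow, ← hk, mul_inv_eq_iff_eq_mul]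
    have := congrArg πG (gd_su s 1)
    rwa [mul_one, map_mul, map_mul] at this
  · rw [← map_pow, σG_one]; exact ww_cent
  · show (πG (SpecialLinearGroup.toGL sw) * _) ^ 2 = 1
    rw [← map_mul, ← map_pow, πG_one]
    refine gl_cent (r := -s) ?_
    rw [pow_two, Units.val_mul, Units.val_mul, gd_val]
    rw [vl_gl, sw_val]
    simp only [mul_fin_two]
    simp
  · rw [← map_mul, ← map_pow, σG_one]; exact uw_cent

theorem pgl_ne : σG (su (1 : F)) ≠ 1 := fun h => su_not (σG_one.1 h)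

theorem σG_sd (s : Fˣ) : σG (sd s) = πG (gd s) ^ 2 := by
  rw [← map_pow, gd_pow]
  refine QuotientGroup.eq.2 (gl_cent (r := s) ?_)
  rw [← map_inv, Units.val_mul, gd_val]
  have e : (sd s)⁻¹ = sd s⁻¹ := inv_eq_of_mul_eq_one_right (by rw [sd_mul, mul_inv_cancel, sd_one])
  rw [e]
  rw [vl_gl, sd_val, mul_fin_two]
  simp [pow_two]

/-- the image of `SL₂` -/
theorem σG_range (hF : ∀ t : F, ∃ n : ℕ, t = n) (s : Fˣ) (hs : ∀ t : Fˣ, ∃ j : ℕ, t = s ^ j) :
    (σG : _ →* PG F).range = closure {σG (su (1 : F)), πG (gd s) ^ 2, σG sw} := by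
  have h1 : closure ({su (1 : F), sd s, sw} : Set (SpecialLinearGroup (Fin 2) F)) = ⊤ := by
    refine sl_top (fun t => ?_) (fun t => ?_) (mem3 _ _ _)
    · obtain ⟨n, rfl⟩ := hF t
      rw [← su_pow]
      exact pow_mem (mem1 _ _ _) n
    · obtain ⟨j, rfl⟩ := hs t
      rw [← sd_pow]
      exact pow_mem (mem2 _ _ _) j
  rw [range3 h1, σG_sd]

theorem pgl_gen (hF : ∀ t : F, ∃ n : ℕ, t = n) (s : Fˣ) (hs : ∀ t : Fˣ, ∃ j : ℕ, t = s ^ j) :
    closure ({σG (su (1 : F)), πG (gd s), σG sw} : Set (PG F)) = ⊤ := by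
  have h1 : (closure ({σG (su (1 : F)), πG (gd s), σG sw} : Set (PG F))).comap πG = ⊤ := by
    refine gl_top (fun A => ?_) fun t => ?_
    · have h2 : σG A ∈ (σG : _ →* PG F).range := ⟨A, rfl⟩
      rw [σG_range hF s hs] at h2
      exact cl3_le (mem1 _ _ _) (pow_mem (mem2 _ _ _) 2) (mem3 _ _ _) h2
    · obtain ⟨j, rfl⟩ := hs t
      rw [mem_comap, ← gd_pow, map_pow]
      exact pow_mem (mem2 _ _ _) j
  rw [eq_top_iff]
  intro x _
  obtain ⟨A, rfl⟩ := QuotientGroup.mk'_surjective _ x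
  have h2 : A ∈ (⊤ : Subgroup (GL (Fin 2) F)) := trivial
  rw [← h1] at h2
  exact h2

/-- the image of `SL₂` is `L₂` -/
theorem σG_equiv : Nonempty ((σG : _ →* PG F).range ≃* ProjectiveSpecialLinearGroup (Fin 2) F) :=
  ⟨(QuotientGroup.quotientKerEquivRange σG).symm.trans
    (QuotientGroup.quotientMulEquivOfEq (Subgroup.ext fun _ => σG_one))⟩

theorem σG_normal : (σG : _ →* PG F).range.Normal := by
  refine ⟨?_⟩
  rintro _ ⟨A, rfl⟩ x
  obtain ⟨B, rfl⟩ := QuotientGroup.mk'_surjective _ x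
  let C : SpecialLinearGroup (Fin 2) F := ⟨((B * SpecialLinearGroup.toGL A * B⁻¹ : GL (Fin 2) F) : Matrix _ _ F), by
    rw [Units.val_mul, Units.val_mul, det_mul, det_mul, mul_right_comm, ← det_mul, ← Units.val_mul, mul_inv_cancel,
      Units.val_one, det_one, one_mul]
    exact vl_det A⟩
  have e : SpecialLinearGroup.toGL C = B * SpecialLinearGroup.toGL A * B⁻¹ := Units.ext rfl
  refine ⟨C, ?_⟩
  show πG (SpecialLinearGroup.toGL C) = πG B * πG (SpecialLinearGroup.toGL A) * (πG B)⁻¹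
  rw [e, map_mul, map_mul, map_inv]

/-- the centraliser of the image of `SL₂` is trivial -/
theorem pgl_cent (h2 : (2 : F) ≠ 0) {x : PG F} (hu : x * σG (su 1) = σG (su 1) * x) (hw : x * σG sw = σG sw * x) :
    x = 1 := by
  obtain ⟨A, rfl⟩ := QuotientGroup.mk'_surjective _ x
  have key : ∀ B : SpecialLinearGroup (Fin 2) F, πG A * σG B = σG B * πG A → ∃ r : F,
      vl B * (A : Matrix (Fin 2) (Fin 2) F) = A * vl B * !![r, 0; 0, r] := fun B hB => by
    have h3 : πG (A * SpecialLinearGroup.toGL B) = πG (SpecialLinearGroup.toGL B * A) := by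
      rw [map_mul, map_mul]; exact hB
    obtain ⟨r, hr⟩ := of_gl_cent (QuotientGroup.eq.1 h3)
    refine ⟨r, ?_⟩
    rw [← hr]
    exact (congrArg Units.val (mul_inv_cancel_left (A * SpecialLinearGroup.toGL B) (SpecialLinearGroup.toGL B * A))).symm
  obtain ⟨r, hr⟩ := key _ hu
  obtain ⟨t, ht⟩ := key _ hw
  have hd : (A : Matrix (Fin 2) (Fin 2) F).det ≠ 0 := A.det_ne_zero
  rw [πG_one]
  obtain ⟨a, b, c, d, hA⟩ : ∃ a b c d : F, (A : Matrix (Fin 2) (Fin 2) F) = !![a, b; c, d] := ⟨_, _, _, _, eta_fin_two _⟩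
  rw [hA, su_val] at hr
  rw [hA, sw_val] at ht
  rw [hA, det_fin_two_of] at hd
  simp only [mul_fin_two] at hr ht
  have r00 := congrFun (congrFun hr 0) 0
  have r01 := congrFun (congrFun hr 0) 1
  have r10 := congrFun (congrFun hr 1) 0
  have r11 := congrFun (congrFun hr 1) 1
  have t00 := congrFun (congrFun ht 0) 0
  have t10 := congrFun (congrFun ht 1) 0
  have t11 := congrFun (congrFun ht 1) 1
  simp at r00 r01 r10 r11 t00 t10 t11
  have hc : c = 0 := by
    by_contra hc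
    have h1 : r = 1 := by
      have := mul_left_cancel₀ hc ((mul_one c).trans r10)
      exact this.symm
    rw [h1] at r00
    exact hc (by linear_combination r00)
  subst hc
  have ha : a ≠ 0 := fun e => hd (by rw [e]; ring)
  have h1 : r = 1 := (mul_left_cancel₀ ha (by linear_combination r00)).symm
  subst h1
  have h3 : d = a := by linear_combination r01
  subst h3
  have h4 : t = 1 := (mul_left_cancel₀ ha (by linear_combination t10)).symm
  subst h4
  have h5 : b = 0 := by linear_combination -t00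
  subst h5
  exact gl_cent hA

/-- every nontrivial normal subgroup of `PGL₂` contains the image of `SL₂` -/
theorem pgl_min (h2 : (2 : F) ≠ 0) (hF : ∃ a : F, a ≠ 0 ∧ a ^ 2 ≠ 1) (N : Subgroup (PG F)) (hN : N.Normal) (h : N ≠ ⊥) :
    (σG : _ →* PG F).range ≤ N := by
  have hs := ProjectiveSpecialLinearGroup.rank_two_simple' hF
  have hs2 : IsSimpleGroup (σG : _ →* PG F).range := (σG_equiv (F := F)).some.isSimpleGroup
  have hn := σG_normal (F := F)
  rcases (hN.subgroupOf (σG : _ →* PG F).range).eq_bot_or_eq_top with h1 | h1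
  · refine absurd ((eq_bot_iff_forall _).2 fun x hx => ?_) h
    rw [subgroupOf_eq_bot] at h1
    have h3 := fun B => (commute_of_normal_of_disjoint N _ hN hn h1 x (σG B) hx ⟨B, rfl⟩).eq
    exact pgl_cent h2 (h3 _) (h3 _)
  · exact subgroupOf_eq_top.1 h1

end mat

end Cfsg.Agent.BX.Iso
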